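import Cfsg.Agent.Lib.Monster.ExtraSp
import Cfsg.Agent.Lib.Components
import Cfsg.Agent.Lib.Golay.LeechTwo2
import Cfsg.Prelude.Def_MonsterType

/-!
Groups of Monster type: the structure of the extraspecial group relative to the lattice modulo 2.
-/

set_option autoImplicit false
set_option linter.style.haveILetI false

namespace Cfsg.Agent.Lib.Monster

open Cfsg Finset Golay

variable {G : Type*} [Group G]

abbrev Cz (z : G) : Subgroup G := Subgroup.centralizer ({z} : Set G)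

theorem mem_Cz {z x : G} : x ∈ Cz z ↔ z * x = x * z := by
  rw [Subgroup.mem_centralizer_iff]
  simp

structure Mon (z : G) (Q : Subgroup G) (φ : Cz z →* Spor.Co1) (R : G → leechLattice → Prop) : Prop where
  z1 : z ≠ 1
  zz : z * z = 1
  zQ : z ∈ Q
  cen : ∀ x ∈ Q, (∀ y ∈ Q, x * y = y * x) → x = 1 ∨ x = z
  comm : ∀ x ∈ Q, ∀ y ∈ Q, x * y = y * x ∨ x * y = z * (y * x)
  sq : ∀ x ∈ Q, x * x = 1 ∨ x * x = z
  card : Nat.card Q = 2 ^ 25
  QC : Q ≤ Cz z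
  ker : ∀ h : Cz z, φ h = 1 ↔ (h : G) ∈ Q
  surj : Function.Surjective φ
  Rmem : ∀ {x v}, R x v → x ∈ Q
  Rex : ∀ x ∈ Q, ∃ v, R x v
  Rsurj : ∀ v, ∃ x, R x v
  Rz : R z 0
  Rmul : ∀ {x y v w}, R x v → R y w → R (x * y) (v + w)
  Runiq : ∀ {x v w}, R x v → R x w → ∃ u, v = w + (u + u)
  Rtwo : ∀ {x y v}, R x v → R y v → y = x ∨ y = x * z
  Rcongr : ∀ {x v w u}, R x v → v = w + (u + u) → R x w
  Rconj : ∀ (h : Cz z) (g : Co0) {x v}, φ h = QuotientGroup.mk g → R x v → R (h * x * (h : G)⁻¹) (g • v)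

/-- the standard construction -/
theorem exists_mon [Finite G] {z : G} {Q : Subgroup (Cz z)} [Q.Normal] (hS : IsExtraspecialCentralizerSetting z Q 12)
    (e : (Cz z) ⧸ Q ≃* Spor.Co1) (ψ : leechLattice → Q ⧸ Subgroup.center Q) (hψ : IsLeechModTwoIso Q e ψ) :
    Mon z (Q.map (Cz z).subtype) (e.toMonoidHom.comp (QuotientGroup.mk' Q))
      (fun x v => ∃ q : Q, ((q : Cz z) : G) = x ∧ ψ v = QuotientGroup.mk q) := by
  obtain ⟨hz2, hF, hE, hcard, -⟩ := hS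
  obtain ⟨hadd, hsur, hker, hconj⟩ := hψ
  obtain ⟨ζ, hζ⟩ := exists_ES hE
  have hz1 : z ≠ 1 := by rintro rfl; simp at hz2
  have hzz : z * z = 1 := by rw [← pow_two, ← hz2, pow_orderOf_eq_one]
  have hzC : z ∈ Cz z := mem_Cz.2 rfl
  have hzF : (⟨z, hzC⟩ : Cz z) ∈ Q := by
    rw [← hF]
    apply Components.centralizer_generalizedFitting_le
    rw [Subgroup.mem_centralizer_iff]
    intro h _
    apply Subtype.ext
    exact (mem_Cz.1 h.2).symm
  have hζz : ζ = ⟨⟨z, hzC⟩, hzF⟩ := by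
    have h1 : ∀ y : Q, (⟨⟨z, hzC⟩, hzF⟩ : Q) * y = y * ⟨⟨z, hzC⟩, hzF⟩ := by
      intro y
      apply Subtype.ext
      apply Subtype.ext
      exact mem_Cz.1 (y : Cz z).2
    rcases (hζ.center _).1 h1 with h2 | h2
    · exfalso
      apply hz1
      have := congrArg (fun t : Q => ((t : Cz z) : G)) h2
      exact this
    · exact h2.symm
  have hmem : ∀ x : G, x ∈ Q.map (Cz z).subtype ↔ ∃ q : Q, ((q : Cz z) : G) = x := by
    intro x
    rw [Subgroup.mem_map]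
    constructor
    · rintro ⟨q, hq, rfl⟩; exact ⟨⟨q, hq⟩, rfl⟩
    · rintro ⟨q, rfl⟩; exact ⟨q, q.2, rfl⟩
  have hinj : ∀ {q r : Q}, ((q : Cz z) : G) = ((r : Cz z) : G) → q = r := fun h => Subtype.ext (Subtype.ext h)
  have hψ0 : ψ 0 = 1 := (hker 0).2 ⟨0, by simp⟩
  have hψn : ∀ v, ψ (-v) = (ψ v)⁻¹ := by
    intro v
    have := hadd v (-v)
    rw [add_neg_cancel, hψ0] at this
    exact (eq_inv_of_mul_eq_one_right this.symm)
  refine
    { z1 := hz1, zz := hzz, zQ := (hmem z).2 ⟨⟨⟨z, hzC⟩, hzF⟩, rfl⟩, cen := ?_, comm := ?_, sq := ?_, card := ?_, QC := ?_, ker := ?_,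
      surj := ?_, Rmem := ?_, Rex := ?_, Rsurj := ?_, Rz := ?_, Rmul := ?_, Runiq := ?_, Rtwo := ?_, Rcongr := ?_,
      Rconj := ?_ }
  · intro x hx h
    obtain ⟨q, rfl⟩ := (hmem x).1 hx
    have h1 : ∀ y : Q, q * y = y * q := fun y => hinj (h _ ((hmem _).2 ⟨y, rfl⟩))
    rcases (hζ.center q).1 h1 with h2 | h2
    · left; rw [h2]; rfl
    · right; rw [h2, hζz]
  · intro x hx y hy
    obtain ⟨q, rfl⟩ := (hmem x).1 hx
    obtain ⟨r, rfl⟩ := (hmem y).1 hy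
    rcases hζ.comm q r with h2 | h2
    · left; exact congrArg (fun t : Q => ((t : Cz z) : G)) h2
    · right; rw [hζz] at h2; exact congrArg (fun t : Q => ((t : Cz z) : G)) h2
  · intro x hx
    obtain ⟨q, rfl⟩ := (hmem x).1 hx
    rcases hζ.sq q with h2 | h2
    · left; exact congrArg (fun t : Q => ((t : Cz z) : G)) h2
    · right; rw [hζz] at h2; exact congrArg (fun t : Q => ((t : Cz z) : G)) h2
  · rw [← hcard]
    exact (Nat.card_congr (Q.equivMapOfInjective _ (Subgroup.subtype_injective _)).toEquiv).symm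
  · intro x hx
    obtain ⟨q, rfl⟩ := (hmem x).1 hx
    exact (q : Cz z).2
  · intro h
    rw [hmem]
    have : (e.toMonoidHom.comp (QuotientGroup.mk' Q)) h = 1 ↔ h ∈ Q := by
      show e (QuotientGroup.mk h) = 1 ↔ _
      rw [map_eq_one_iff e e.injective, QuotientGroup.eq_one_iff]
    rw [this]
    exact ⟨fun hh => ⟨⟨h, hh⟩, rfl⟩, fun ⟨q, hq⟩ => by rw [← (Subtype.ext hq : (q : Cz z) = h)]; exact q.2⟩
  · intro c
    obtain ⟨h, hh⟩ := QuotientGroup.mk_surjective (e.symm c)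
    exact ⟨h, by show e (QuotientGroup.mk h) = c; rw [hh]; exact e.apply_symm_apply c⟩
  · rintro x v ⟨q, rfl, _⟩
    exact (hmem _).2 ⟨q, rfl⟩
  · intro x hx
    obtain ⟨q, rfl⟩ := (hmem x).1 hx
    obtain ⟨v, hv⟩ := hsur (QuotientGroup.mk q)
    exact ⟨v, q, rfl, hv⟩
  · intro v
    obtain ⟨q, hq⟩ := QuotientGroup.mk_surjective (ψ v)
    exact ⟨_, q, rfl, hq.symm⟩
  · refine ⟨⟨⟨z, hzC⟩, hzF⟩, rfl, ?_⟩
    rw [hψ0]
    symm
    rw [QuotientGroup.eq_one_iff, hζ.mem_center, ← hζz]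
    exact Or.inr rfl
  · rintro x y v w ⟨q, rfl, hq⟩ ⟨r, rfl, hr⟩
    exact ⟨q * r, rfl, by rw [hadd, hq, hr]; rfl⟩
  · rintro x v w ⟨q, rfl, hq⟩ ⟨r, hr0, hr⟩
    have : q = r := hinj hr0.symm
    subst this
    have h1 : ψ (v + -w) = 1 := by rw [hadd, hψn, hq, hr, mul_inv_cancel]
    obtain ⟨u, hu⟩ := (hker _).1 h1
    exact ⟨u, by rw [← hu]; abel⟩
  · rintro x y v ⟨q, rfl, hq⟩ ⟨r, rfl, hr⟩
    have h1 : q⁻¹ * r ∈ Subgroup.center Q := QuotientGroup.eq.1 (hq.symm.trans hr)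
    rcases hζ.mem_center.1 h1 with h2 | h2
    · left; rw [← inv_mul_eq_one.1 h2]
    · right
      rw [inv_mul_eq_iff_eq_mul, hζz] at h2
      rw [h2]; rfl
  · rintro x v w u ⟨q, rfl, hq⟩ h
    refine ⟨q, rfl, ?_⟩
    rw [← hq, h, hadd, (hker (u + u)).2 ⟨u, rfl⟩, mul_one]
  · rintro h g x v hh ⟨q, rfl, hq⟩
    exact ⟨_, rfl, hconj h g hh.symm v q hq⟩

end Cfsg.Agent.Lib.Monster
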