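import Cfsg.Agent.Lib.Monster.Form

/-!
Groups of Monster type: conjugates of the central involution in the extraspecial group.
-/

set_option autoImplicit false
set_option linter.style.haveILetI false
set_option linter.unusedSectionVars false

namespace Cfsg.Agent.Lib.Monster

open Cfsg Finset Golay

variable {G : Type*} [Group G] {z : G} {Q : Subgroup G} {φ : Cz z →* Spor.Co1} {R : G → leechLattice → Prop}

namespace Mon

section basics
variable (M : Mon z Q φ R)
include M

theorem trans_of {x y : G} {v w : leechLattice} (hx : R x v) (hy : R y w) (hx1 : x ≠ 1) (hxz : x ≠ z) {g : Co0}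
    (hg : g • v = w) : ∃ h ∈ Cz z, h * x * h⁻¹ = y := by
  obtain ⟨h, hh⟩ := M.surj (QuotientGroup.mk g)
  have h1 := M.Rconj h g hh hx
  rw [hg] at h1
  rcases M.Rtwo h1 hy with h2 | h2
  · exact ⟨h, h.2, h2.symm⟩
  · obtain ⟨y0, hy0, e⟩ := M.conj_ex' (M.Rmem hx) hx1 hxz
    refine ⟨h * y0, mul_mem h.2 (M.QC hy0), ?_⟩
    have : (h : G) * y0 * x * ((h : G) * y0)⁻¹ = h * (y0 * x * y0⁻¹) * (h : G)⁻¹ := by group
    rw [this, e, h2]
    have e3 : z * (h : G) = h * z := mem_Cz.1 h.2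
    have e4 : z * (h : G)⁻¹ = (h : G)⁻¹ * z := by
      rw [mul_inv_eq_iff_eq_mul, mul_assoc, e3]; group
    rw [← mul_assoc, mul_assoc ((h : G) * x), e4]; group

theorem type_cases {x : G} (hx : x ∈ Q) : x = 1 ∨ x = z ∨ ∃ v, R x v ∧ (sqNorm (v : Vec) = 32 ∨ sqNorm (v : Vec) = 48 ∨
    sqNorm (v : Vec) = 64) := by
  obtain ⟨v, hv⟩ := M.Rex x hx
  obtain ⟨y, hy, hn, u, hu, h⟩ := short_rep v.2
  have h1 : R x ⟨y, hy⟩ := M.Rcongr (u := ⟨u, hu⟩) hv (by
    apply Subtype.ext
    show (v : Vec) = y + (u + u)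
    rw [← h]; abel)
  rcases hn with h2 | h2
  · have : (⟨y, hy⟩ : leechLattice) = 0 := Subtype.ext (sqNorm_eq_zero h2)
    rw [this] at h1
    rcases M.Rtwo M.Rone h1 with h3 | h3
    · exact Or.inl h3
    · right; left; rw [h3, one_mul]
  · right; right; exact ⟨_, h1, h2⟩

theorem ne_of_R {x : G} {v : leechLattice} (h : R x v) (hn : sqNorm (v : Vec) = 32 ∨ sqNorm (v : Vec) = 64) :
    x ≠ 1 ∧ x ≠ z := by
  have key : ¬ R x 0 := by
    intro h0
    obtain ⟨u, hu⟩ := M.Runiq h h0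
    rw [zero_add] at hu
    have e1 : sqNorm (v : Vec) = 4 * sqNorm (u : Vec) := by
      rw [hu]; exact norm_two _
    have e2 := norm_ge u.2
    omega
  constructor
  · rintro rfl; exact key M.Rone
  · rintro rfl; exact key M.Rz

theorem Rpow {x : G} {v : leechLattice} (h : R x v) : R x⁻¹ v := by
  rcases M.sq x (M.Rmem h) with h1 | h1
  · have : x⁻¹ = x := by rw [inv_eq_iff_mul_eq_one]; exact h1
    rw [this]; exact h
  · have : x⁻¹ = x * z := by
      have e : x * (x * z) = 1 := by rw [← mul_assoc, h1, M.zz]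
      exact (eq_inv_of_mul_eq_one_right e).symm
    rw [this]; exact M.Rmz h

/-- precomposing with a lattice automorphism -/
theorem twist (k : Co0) : Mon z Q ((MulAut.conj (QuotientGroup.mk k⁻¹ : Spor.Co1)).toMonoidHom.comp φ)
    (fun x w => R x (k • w)) := by
  refine
    { z1 := M.z1, zz := M.zz, zQ := M.zQ, cen := M.cen, comm := M.comm, sq := M.sq, card := M.card, QC := M.QC, ker := ?_,
      surj := ?_, Rmem := fun h => M.Rmem h, Rex := ?_, Rsurj := fun v => M.Rsurj _, Rz := ?_, Rmul := ?_, Runiq := ?_,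
      Rtwo := fun h1 h2 => M.Rtwo h1 h2, Rcongr := ?_, Rconj := ?_ }
  · intro h
    rw [← M.ker h]
    show (MulAut.conj (QuotientGroup.mk k⁻¹ : Spor.Co1)) (φ h) = 1 ↔ _
    rw [map_eq_one_iff _ (MulEquiv.injective _)]
  · intro c
    obtain ⟨h, hh⟩ := M.surj ((MulAut.conj (QuotientGroup.mk k⁻¹ : Spor.Co1))⁻¹ c)
    refine ⟨h, ?_⟩
    show (MulAut.conj (QuotientGroup.mk k⁻¹ : Spor.Co1)) (φ h) = c
    rw [hh, ← MulAut.mul_apply, mul_inv_cancel, MulAut.one_apply]
  · intro x hx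
    obtain ⟨v, hv⟩ := M.Rex x hx
    exact ⟨k⁻¹ • v, by rw [smul_inv_smul]; exact hv⟩
  · show R z (k • (0 : leechLattice))
    have : k • (0 : leechLattice) = 0 := by
      apply smul_eq_iff_app.2
      exact app_zero k
    rw [this]; exact M.Rz
  · intro x y v w h1 h2
    show R (x * y) (k • (v + w))
    have : k • (v + w) = k • v + k • w := by
      apply smul_eq_iff_app.2
      show app k ((v : Vec) + w) = _
      rw [app_add k v.2 w.2, app_coe, app_coe]; rfl
    rw [this]; exact M.Rmul h1 h2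
  · intro x v w h1 h2
    obtain ⟨u, hu⟩ := M.Runiq h1 h2
    refine ⟨k⁻¹ • u, ?_⟩
    have e : v = k⁻¹ • (k • v) := (inv_smul_smul _ _).symm
    rw [e, hu]
    apply smul_eq_iff_app.2
    show app k⁻¹ (((k • w : leechLattice) : Vec) + (u + u)) = _
    rw [app_add k⁻¹ (k • w).2 (add_mem u.2 u.2), app_add k⁻¹ u.2 u.2, ← app_coe k w, app_inv_app, app_coe]; rfl
  · intro x v w u h1 h2
    refine M.Rcongr (u := k • u) h1 ?_
    rw [h2]
    apply smul_eq_iff_app.2
    show app k ((w : Vec) + (u + u)) = _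
    rw [app_add k w.2 (add_mem u.2 u.2), app_add k u.2 u.2, app_coe, app_coe]; rfl
  · intro h g x v h1 h2
    have h3 : φ h = QuotientGroup.mk (k * g * k⁻¹) := by
      have e : (MulAut.conj (QuotientGroup.mk k⁻¹ : Spor.Co1)) (φ h) = QuotientGroup.mk g := h1
      rw [MulAut.conj_apply] at e
      rw [QuotientGroup.mk_mul, QuotientGroup.mk_mul, ← e, QuotientGroup.mk_inv]; group
    have h4 := M.Rconj h _ h3 h2
    rw [smul_smul, inv_mul_cancel_right, mul_smul] at h4
    exact h4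

end basics

end Mon

/-- elements of order 23 fixing a vector -/
theorem exists_ord23 {v : leechLattice} (hv : sqNorm (v : Vec) = 32 ∨ sqNorm (v : Vec) = 64) :
    ∃ g : Co0, (∀ n, g ^ n = 1 ↔ 23 ∣ n) ∧ (∀ n, g ^ n ≠ negEl) ∧ g • v = v := by
  have key : ∀ {w : leechLattice} (k : Co0), k • w = v → tEl • w = w → ∃ g : Co0, (∀ n, g ^ n = 1 ↔ 23 ∣ n) ∧
      (∀ n, g ^ n ≠ negEl) ∧ g • v = v := by
    intro w k hk hw
    refine ⟨k * tEl * k⁻¹, fun n => ?_, fun n => ?_, ?_⟩
    · rw [conj_pow, mul_inv_eq_one, mul_eq_left, tEl_pow]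
    · rw [conj_pow]
      intro h
      apply tEl_ne_neg n
      have : tEl ^ n = k⁻¹ * (k * tEl ^ n * k⁻¹) * k := by group
      rw [this, h, ← negEl_comm]; group
    · rw [mul_smul, mul_smul, ← hk, inv_smul_smul, hw]
  rcases hv with hv | hv
  · obtain ⟨k, hk⟩ := Eqv.one (v := ⟨rO pa, rO_mem pa⟩) (w := v)
      ((min_trans (rO_mem pa) (by decide +kernel)).trans (min_trans v.2 hv).symm)
    refine key k hk ?_
    apply smul_eq_iff_app.2
    show app tEl (rO pa) = rO pa
    rw [tEl_app (rO_mem pa), rO_fix]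
  · obtain ⟨k, hk⟩ := T64 v.2 hv
    refine key (w := t0L) k⁻¹ ?_ ?_
    · apply smul_eq_iff_app.2
      show app k⁻¹ t0 = v
      rw [← hk, app_inv_app]
    · apply smul_eq_iff_app.2
      show app tEl (sg pa 8) = sg pa 8
      rw [tEl_app (sg8_mem pa), prm_sg, sT_pa]

section conj

variable [Finite G] (M : Mon z Q φ R)

namespace Mon
include M

theorem pow_eq_one {x : G} (hx : x ∈ Q) : x ^ (2 ^ 25) = 1 := by
  have : (⟨x, hx⟩ : Q) ^ Nat.card Q = 1 := pow_card_eq_one'
  rw [M.card] at this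
  exact congrArg Subtype.val this

/-- membership of the conjugating centraliser -/
theorem conj_mem_C {g x : G} (hx : x * (g * z * g⁻¹) = (g * z * g⁻¹) * x) : g⁻¹ * x * g ∈ Cz z := by
  rw [mem_Cz]
  have e1 : z * (g⁻¹ * x * g) = g⁻¹ * ((g * z * g⁻¹) * x) * g := by group
  rw [e1, ← hx]; group

/-- a conjugate of z in Q: z lies in the corresponding conjugate of Q -/
theorem z_mem {g : G} (hs : g * z * g⁻¹ ∈ Q) (hne : g * z * g⁻¹ ≠ z) : g⁻¹ * z * g ∈ Q := by
  set s := g * z * g⁻¹ with hsdef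
  have hs1 : s ≠ 1 := by
    intro h
    rw [hsdef, mul_inv_eq_one, mul_eq_left] at h
    exact M.z1 h
  have hss : s * s = 1 := by
    rw [hsdef]
    have : g * z * g⁻¹ * (g * z * g⁻¹) = g * (z * z) * g⁻¹ := by group
    rw [this, M.zz]; group
  obtain ⟨v, hRv, hn⟩ := (M.type_cases hs).resolve_left hs1 |>.resolve_left hne
  have hn' : sqNorm (v : Vec) = 32 ∨ sqNorm (v : Vec) = 64 := by
    rcases hn with h | h | h
    · exact Or.inl h
    · exact absurd ((M.sq_iff hRv).2 hss) (M.sq48 h)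
    · exact Or.inr h
  obtain ⟨g0, hg0, hg0n, hgv⟩ := exists_ord23 hn'
  obtain ⟨h0, hh0⟩ := M.surj (QuotientGroup.mk g0)
  -- h0 squared commutes with s
  have hzs : z * s = s * z := M.zc hs
  have hzh : z * (h0 : G) = h0 * z := mem_Cz.1 h0.2
  have h2 : (h0 : G) ^ 2 * s = s * (h0 : G) ^ 2 := by
    have h3 := M.Rconj h0 g0 hh0 hRv
    rw [hgv] at h3
    rcases M.Rtwo hRv h3 with h4 | h4
    · have e : (h0 : G) * s = s * h0 := mul_inv_eq_iff_eq_mul.1 h4
      rw [pow_two, mul_assoc, e, ← mul_assoc, e, mul_assoc]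
    · have e : (h0 : G) * s = s * z * h0 := mul_inv_eq_iff_eq_mul.1 h4
      calc (h0 : G) ^ 2 * s = h0 * (h0 * s) := by rw [pow_two, mul_assoc]
        _ = h0 * (s * z * h0) := by rw [e]
        _ = (h0 * s) * (z * h0) := by group
        _ = (s * z * h0) * (z * h0) := by rw [e]
        _ = s * z * (h0 * z) * h0 := by group
        _ = s * z * (z * h0) * h0 := by rw [hzh]
        _ = s * (z * z) * (h0 * h0) := by group
        _ = s * (h0 : G) ^ 2 := by rw [M.zz, mul_one, pow_two]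
  set b : G := (h0 : G) ^ (2 ^ 25) with hb
  have hbs : b * s = s * b := by
    have : b = ((h0 : G) ^ 2) ^ (2 ^ 24) := by rw [hb, ← pow_mul, ← pow_succ']
    rw [this]
    exact (show Commute ((h0 : G) ^ 2) s from h2).pow_left _
  have hbz : z * b = b * z := (show Commute z (h0 : G) from hzh).pow_right _
  have hh23 : (h0 : G) ^ 23 ∈ Q := by
    have : φ (h0 ^ 23) = 1 := by
      rw [map_pow, hh0, ← QuotientGroup.mk_pow, (hg0 23).2 (dvd_refl _)]; rfl
    exact (M.ker _).1 this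
  have hb23 : b ^ 23 = 1 := by
    rw [hb, ← pow_mul, mul_comm, pow_mul, M.pow_eq_one hh23]
  have hb1 : b ≠ 1 := by
    intro h
    have h5 : φ (h0 ^ (2 ^ 25)) = 1 := by
      rw [M.ker]
      have : ((h0 ^ (2 ^ 25) : Cz z) : G) = b := rfl
      rw [this, h]; exact one_mem _
    rw [map_pow, hh0, ← QuotientGroup.mk_pow, mk_eq_one] at h5
    rcases h5 with h5 | h5
    · have := (hg0 _).1 h5
      norm_num at this
    · exact hg0n _ h5
  -- pass to the conjugate
  have c1 : g⁻¹ * z * g ∈ Cz z := M.conj_mem_C hzs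
  have c2 : g⁻¹ * b * g ∈ Cz z := M.conj_mem_C hbs
  have a1 : φ ⟨_, c1⟩ = 1 := by
    apply nc (b := φ ⟨_, c2⟩)
    · rw [← map_mul]
      have : (⟨g⁻¹ * z * g, c1⟩ : Cz z) * ⟨_, c1⟩ = 1 := by
        apply Subtype.ext
        show g⁻¹ * z * g * (g⁻¹ * z * g) = 1
        have : g⁻¹ * z * g * (g⁻¹ * z * g) = g⁻¹ * (z * z) * g := by group
        rw [this, M.zz]; group
      rw [this, map_one]
    · haveI := fact23
      apply orderOf_eq_prime
      · rw [← map_pow]
        have : (⟨g⁻¹ * b * g, c2⟩ : Cz z) ^ 23 = 1 := by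
          apply Subtype.ext
          show (g⁻¹ * b * g) ^ 23 = 1
          have e : (g⁻¹ * b * g) ^ 23 = g⁻¹ * b ^ 23 * g := by
            have := conj_pow (i := 23) (a := g⁻¹) (b := b)
            rwa [inv_inv] at this
          rw [e, hb23]; group
        rw [this, map_one]
      · intro h
        have h6 : g⁻¹ * b * g ∈ Q := (M.ker _).1 h
        have h7 := M.pow_eq_one h6
        have e : (g⁻¹ * b * g) ^ (2 ^ 25) = g⁻¹ * b ^ (2 ^ 25) * g := by
          have := conj_pow (i := 2 ^ 25) (a := g⁻¹) (b := b)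
          rwa [inv_inv] at this
        rw [e] at h7
        have h8 : b ^ (2 ^ 25) = 1 := by
          have : b ^ (2 ^ 25) = g * (g⁻¹ * b ^ (2 ^ 25) * g) * g⁻¹ := by group
          rw [this, h7]; group
        have h9 : orderOf b ∣ Nat.gcd 23 (2 ^ 25) := Nat.dvd_gcd (orderOf_dvd_of_pow_eq_one hb23) (orderOf_dvd_of_pow_eq_one h8)
        have h10 : Nat.gcd 23 (2 ^ 25) = 1 := by norm_num
        rw [h10, Nat.dvd_one, orderOf_eq_one_iff] at h9
        exact hb1 h9
    · rw [← map_mul, ← map_mul]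
      congr 1
      apply Subtype.ext
      show g⁻¹ * z * g * (g⁻¹ * b * g) = g⁻¹ * b * g * (g⁻¹ * z * g)
      have : g⁻¹ * z * g * (g⁻¹ * b * g) = g⁻¹ * (z * b) * g := by group
      rw [this, hbz]; group
  exact (M.ker _).1 a1

end Mon

end conj

end Cfsg.Agent.Lib.Monster
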