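import Cfsg.Agent.Lib.Monster.Conj

/-!
Groups of Monster type: the group induced by a conjugate of Q.
-/

set_option autoImplicit false
set_option linter.style.haveILetI false
set_option linter.unusedSectionVars false

namespace Cfsg.Agent.Lib.Monster

open Cfsg Finset Golay

variable {G : Type*} [Group G] {z : G} {Q : Subgroup G} {φ : Cz z →* Spor.Co1} {R : G → leechLattice → Prop}

theorem card_ker_range {A B : Type*} [Group A] [Group B] (f : A →* B) :
    Nat.card A = Nat.card f.range * Nat.card f.ker := by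
  rw [Subgroup.card_eq_card_quotient_mul_card_subgroup f.ker, Nat.card_congr (QuotientGroup.quotientKerEquivRange f).toEquiv]

/-- the part of the conjugate of Q inside the centraliser -/
def AG (Q : Subgroup G) (g : G) : Subgroup (Cz z) where
  carrier := {h | g⁻¹ * h * g ∈ Q}
  one_mem' := by
    show g⁻¹ * 1 * g ∈ Q
    have : g⁻¹ * 1 * g = 1 := by group
    rw [this]; exact one_mem _
  mul_mem' := by
    intro a b ha hb
    show g⁻¹ * (a * b) * g ∈ Q
    have : g⁻¹ * ((a : G) * b) * g = (g⁻¹ * a * g) * (g⁻¹ * b * g) := by group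
    rw [this]; exact mul_mem ha hb
  inv_mem' := by
    intro a ha
    show g⁻¹ * (a : G)⁻¹ * g ∈ Q
    have : g⁻¹ * (a : G)⁻¹ * g = (g⁻¹ * a * g)⁻¹ := by group
    rw [this]; exact inv_mem ha

theorem mem_AG {g : G} {h : Cz z} : h ∈ AG Q g ↔ g⁻¹ * h * g ∈ Q := Iff.rfl

def TG (Q : Subgroup G) (φ : Cz z →* Spor.Co1) (g : G) : Subgroup Co0 :=
  ((AG Q g).map φ).comap (QuotientGroup.mk' (Subgroup.center Co0))

theorem mem_TG {g : G} {t : Co0} : t ∈ TG Q φ g ↔ ∃ h : Cz z, g⁻¹ * h * g ∈ Q ∧ φ h = QuotientGroup.mk t := by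
  unfold TG
  rw [Subgroup.mem_comap, Subgroup.mem_map]
  rfl

namespace Mon

section
variable (M : Mon z Q φ R)
include M

theorem comm_mul {x y u : G} (hx : x ∈ Q) (hy : y ∈ Q) (hu : u ∈ Q) :
    u * (x * y) = x * y * u ↔ (u * x = x * u ↔ u * y = y * u) := by
  obtain ⟨a, ha⟩ := M.Rex x hx
  obtain ⟨b, hb⟩ := M.Rex y hy
  obtain ⟨c, hc⟩ := M.Rex u hu
  have := M.cm_add (u := c) (v := a) (w := b)
  rw [M.cm_iff hc (M.Rmul ha hb), M.cm_iff hc ha, M.cm_iff hc hb] at this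
  exact this

theorem finQ : Finite Q := Nat.finite_of_card_ne_zero (by rw [M.card]; norm_num)

theorem card_cen {u : G} (hu : u ∈ Q) (h1 : u ≠ 1) (h2 : u ≠ z) : {x | x ∈ Q ∧ u * x = x * u}.ncard = 2 ^ 24 := by
  haveI := M.finQ
  obtain ⟨y0, hy0, e⟩ := M.conj_ex hu h1 h2
  have hn : ¬ u * y0 = y0 * u := by
    intro h
    rw [h] at e
    exact M.z1 (mul_eq_right.1 e.symm)
  have hfin : (Q : Set G).Finite := Set.toFinite _
  have hS : (fun x => y0 * x) '' {x | x ∈ Q ∧ u * x = x * u} = {x | x ∈ Q ∧ ¬ u * x = x * u} := by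
    ext x
    constructor
    · rintro ⟨w, ⟨hw, hw2⟩, rfl⟩
      refine ⟨mul_mem hy0 hw, ?_⟩
      rw [M.comm_mul hy0 hw hu]
      simp [hn, hw2]
    · rintro ⟨hx, hx2⟩
      refine ⟨y0⁻¹ * x, ⟨mul_mem (inv_mem hy0) hx, ?_⟩, by group⟩
      rw [M.comm_mul (inv_mem hy0) hx hu]
      have : ¬ u * y0⁻¹ = y0⁻¹ * u := by
        intro h
        apply hn
        have e1 : u = y0⁻¹ * u * y0 := by rw [← h]; group
        nth_rw 2 [e1]; group
      simp [this, hx2]
  have hU : {x | x ∈ Q ∧ u * x = x * u} ∪ {x | x ∈ Q ∧ ¬ u * x = x * u} = (Q : Set G) := by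
    ext x
    simp only [Set.mem_union, Set.mem_setOf_eq, SetLike.mem_coe]
    tauto
  have hD : Disjoint {x | x ∈ Q ∧ u * x = x * u} {x | x ∈ Q ∧ ¬ u * x = x * u} := by
    rw [Set.disjoint_left]
    rintro x ⟨_, h⟩ ⟨_, h'⟩
    exact h' h
  have h3 := Set.ncard_union_eq hD (hfin.subset (fun x hx => hx.1)) (hfin.subset (fun x hx => hx.1))
  rw [hU, ← hS, Set.ncard_image_of_injective _ (mul_right_injective y0)] at h3
  have h4 : (Q : Set G).ncard = 2 ^ 25 := M.card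
  rw [h4] at h3
  omega

theorem nonab {u : G} (hu : u ∈ Q) (h1 : u ≠ 1) (h2 : u ≠ z) : ∃ x ∈ Q, ∃ y ∈ Q, u * x = x * u ∧ u * y = y * u ∧
    ¬ x * y = y * x := by
  by_contra hcon
  push Not at hcon
  obtain ⟨y0, hy0, e⟩ := M.conj_ex hu h1 h2
  have hn : ¬ u * y0 = y0 * u := by
    intro h
    rw [h] at e
    exact M.z1 (mul_eq_right.1 e.symm)
  have hab : ∀ x ∈ Q, ∀ y ∈ Q, u * x = x * u → u * y = y * u → x * y = y * x :=
    fun x hx y hy a b => hcon x hx y hy a b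
  have hcl : ∀ x ∈ Q, u * x = x * u → x * y0 = y0 * x → x = 1 ∨ x = z := by
    intro x hx hux hxy
    apply M.cen x hx
    intro w hw
    by_cases huw : u * w = w * u
    · exact hab x hx w hw hux huw
    · have h3 : u * (w * y0) = w * y0 * u := by
        rw [M.comm_mul hw hy0 hu]; simp [huw, hn]
      have h4 := hab x hx (w * y0) (mul_mem hw hy0) hux h3
      rw [M.comm_mul hw hy0 hx] at h4
      exact h4.2 hxy
  have h5 := M.card_cen hu h1 h2
  by_cases hall : ∀ x ∈ Q, u * x = x * u → x * y0 = y0 * x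
  · have h6 : {x | x ∈ Q ∧ u * x = x * u} ⊆ ({1, z} : Set G) := by
      rintro x ⟨hx, hux⟩
      exact hcl x hx hux (hall x hx hux)
    have h7 := Set.ncard_le_ncard h6 (Set.toFinite _)
    have h8 := Set.ncard_insert_le (1 : G) {z}
    rw [Set.ncard_singleton] at h8
    omega
  · push Not at hall
    obtain ⟨x1, hx1, hux1, hxy1⟩ := hall
    have h6 : {x | x ∈ Q ∧ u * x = x * u} ⊆ ({1, z, x1, x1 * z} : Set G) := by
      rintro x ⟨hx, hux⟩
      by_cases hxy : x * y0 = y0 * x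
      · rcases hcl x hx hux hxy with h | h <;> simp [h]
      · have e1 : u * (x1⁻¹ * x) = x1⁻¹ * x * u := by
          rw [M.comm_mul (inv_mem hx1) hx hu]
          have := (show Commute u x1 from hux1).inv_right
          exact ⟨fun _ => hux, fun _ => this⟩
        have e2 : y0 * (x1⁻¹ * x) = x1⁻¹ * x * y0 := by
          rw [M.comm_mul (inv_mem hx1) hx hy0]
          have n1 : ¬ y0 * x1⁻¹ = x1⁻¹ * y0 := by
            intro h
            apply hxy1
            have h9 : Commute y0 x1⁻¹ := h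
            have h10 := h9.inv_right
            rw [inv_inv] at h10
            exact h10.symm
          have n2 : ¬ y0 * x = x * y0 := fun h => hxy h.symm
          simp [n1, n2]
        rcases hcl _ (mul_mem (inv_mem hx1) hx) e1 e2.symm with h | h
        · have : x = x1 := (inv_mul_eq_one.1 h).symm
          simp [this]
        · have : x = x1 * z := by rw [← h]; group
          simp [this]
    have h7 := Set.ncard_le_ncard h6 (Set.toFinite _)
    have h8 := Set.ncard_insert_le (1 : G) {z, x1, x1 * z}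
    have h9 := Set.ncard_insert_le z {x1, x1 * z}
    have h10 := Set.ncard_insert_le x1 {x1 * z}
    rw [Set.ncard_singleton] at h10
    omega

theorem Qnorm (c : Cz z) {x : G} (hx : x ∈ Q) : (c : G) * x * (c : G)⁻¹ ∈ Q := by
  have h1 : φ ⟨x, M.QC hx⟩ = 1 := (M.ker _).2 hx
  have h2 : φ (c * ⟨x, M.QC hx⟩ * c⁻¹) = 1 := by rw [map_mul, map_mul, h1, map_inv]; group
  exact (M.ker _).1 h2

/-- stabilisers of classes lift to the centraliser -/
theorem lift {s : G} {v : leechLattice} (hs : R s v) (h1 : s ≠ 1) (h2 : s ≠ z) {g0 : Co0} (h : R s (g0 • v)) :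
    ∃ h : Cz z, φ h = QuotientGroup.mk g0 ∧ (h : G) * s = s * h := by
  obtain ⟨h0, hh0⟩ := M.surj (QuotientGroup.mk g0)
  have h3 := M.Rconj h0 g0 hh0 hs
  rcases M.Rtwo h h3 with h4 | h4
  · exact ⟨h0, hh0, mul_inv_eq_iff_eq_mul.1 h4⟩
  · obtain ⟨y0, hy0, e⟩ := M.conj_ex' (M.Rmem hs) h1 h2
    refine ⟨⟨y0, M.QC hy0⟩⁻¹ * h0, ?_, ?_⟩
    · rw [map_mul, hh0, map_inv, (M.ker ⟨y0, M.QC hy0⟩).2 hy0, inv_one, one_mul]
    · show y0⁻¹ * h0 * s = s * (y0⁻¹ * h0)
      have e1 : (h0 : G) * s = s * z * h0 := mul_inv_eq_iff_eq_mul.1 h4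
      have e2 : y0 * s = s * z * y0 := mul_inv_eq_iff_eq_mul.1 e
      calc y0⁻¹ * h0 * s = y0⁻¹ * (h0 * s) := by group
        _ = y0⁻¹ * (s * z) * h0 := by rw [e1]; group
        _ = y0⁻¹ * (s * z * y0) * y0⁻¹ * h0 := by group
        _ = y0⁻¹ * (y0 * s) * y0⁻¹ * h0 := by rw [e2]
        _ = s * (y0⁻¹ * h0) := by group

end

section
variable [Finite G] (M : Mon z Q φ R)
include M

variable {g : G} (hs : g * z * g⁻¹ ∈ Q) (hne : g * z * g⁻¹ ≠ z)
include hs hne

theorem u_ne : g⁻¹ * z * g ≠ 1 ∧ g⁻¹ * z * g ≠ z := by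
  constructor
  · intro h
    apply M.z1
    have : z = g * (g⁻¹ * z * g) * g⁻¹ := by group
    rw [this, h]; group
  · intro h
    apply hne
    nth_rw 1 [← h]; group

theorem s_ne : g * z * g⁻¹ ≠ 1 := by
  intro h
  rw [mul_inv_eq_one, mul_eq_left] at h
  exact M.z1 h

theorem neg_mem_TG : negEl ∈ TG Q φ g := by
  refine mem_TG.2 ⟨1, ?_, ?_⟩
  · show g⁻¹ * 1 * g ∈ Q
    have : g⁻¹ * 1 * g = 1 := by group
    rw [this]; exact one_mem _
  · rw [map_one]; exact (mk_eq_one.2 (Or.inr rfl)).symm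

theorem TG_pgroup : IsPGroup 2 (TG Q φ g) := by
  rintro ⟨t, ht⟩
  obtain ⟨h, h1, h2⟩ := mem_TG.1 ht
  refine ⟨26, ?_⟩
  apply Subtype.ext
  show t ^ 2 ^ 26 = 1
  have h3 : (h : G) ^ 2 ^ 25 = 1 := by
    have := M.pow_eq_one h1
    have e : (g⁻¹ * h * g) ^ (2 ^ 25) = g⁻¹ * (h : G) ^ (2 ^ 25) * g := by
      have := conj_pow (i := 2 ^ 25) (a := g⁻¹) (b := (h : G))
      rwa [inv_inv] at this
    rw [e] at this
    have e2 : (h : G) ^ 2 ^ 25 = g * (g⁻¹ * (h : G) ^ (2 ^ 25) * g) * g⁻¹ := by group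
    rw [e2, this]; group
  have h4 : (QuotientGroup.mk (t ^ 2 ^ 25) : Spor.Co1) = 1 := by
    rw [QuotientGroup.mk_pow, ← h2, ← map_pow]
    have : h ^ 2 ^ 25 = 1 := Subtype.ext h3
    rw [this, map_one]
  rw [pow_succ, pow_mul]
  rcases mk_eq_one.1 h4 with h5 | h5 <;> rw [h5]
  · rw [one_pow]
  · rw [pow_two, negEl_sq]

theorem TG_comm {h : Cz z} (h1 : g⁻¹ * h * g ∈ Q) : (h : G) * (g * z * g⁻¹) = (g * z * g⁻¹) * h := by
  have h2 := M.zc h1
  have e1 : (h : G) * (g * z * g⁻¹) = g * ((g⁻¹ * h * g) * z) * g⁻¹ := by group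
  rw [e1, ← h2]; group

theorem TG_stab {v : leechLattice} (hv : R (g * z * g⁻¹) v) {t : Co0} (ht : t ∈ TG Q φ g) : R (g * z * g⁻¹) (t • v) := by
  obtain ⟨h, h1, h2⟩ := mem_TG.1 ht
  have h3 := M.Rconj h t h2 hv
  rw [M.TG_comm hs hne h1] at h3
  have : g * z * g⁻¹ * (h : G) * (h : G)⁻¹ = g * z * g⁻¹ := by group
  rwa [this] at h3

theorem TG_norm {v : leechLattice} (hv : R (g * z * g⁻¹) v) {g0 : Co0} (hg : R (g * z * g⁻¹) (g0 • v)) {t : Co0}
    (ht : t ∈ TG Q φ g) : g0 * t * g0⁻¹ ∈ TG Q φ g := by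
  obtain ⟨h, h1, h2⟩ := mem_TG.1 ht
  obtain ⟨k, hk, hks⟩ := M.lift hv (M.s_ne hs hne) hne hg
  refine mem_TG.2 ⟨k * h * k⁻¹, ?_, ?_⟩
  · show g⁻¹ * (k * h * (k : G)⁻¹) * g ∈ Q
    have hc : g⁻¹ * k * g ∈ Cz z := M.conj_mem_C hks
    have := M.Qnorm ⟨_, hc⟩ h1
    have e : g⁻¹ * (k * h * (k : G)⁻¹) * g = (g⁻¹ * k * g) * (g⁻¹ * h * g) * (g⁻¹ * k * g)⁻¹ := by group
    rw [e]; exact this
  · rw [map_mul, map_mul, map_inv, hk, h2]; rfl

theorem TG_ne : ∃ t ∈ TG Q φ g, t ≠ 1 ∧ t ≠ negEl := by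
  by_contra hcon
  push Not at hcon
  have hu := M.z_mem hs hne
  obtain ⟨u1, u2⟩ := M.u_ne hs hne
  obtain ⟨x', hx', y', hy', h1, h2, h3⟩ := M.nonab hu u1 u2
  have key : ∀ x' ∈ Q, g⁻¹ * z * g * x' = x' * (g⁻¹ * z * g) → g * x' * g⁻¹ ∈ Q := by
    intro x' hx' h1
    have hc : g * x' * g⁻¹ ∈ Cz z := by
      rw [mem_Cz]
      have e1 : z * (g * x' * g⁻¹) = g * (g⁻¹ * z * g * x') * g⁻¹ := by group
      rw [e1, h1]; group
    obtain ⟨t, ht⟩ := QuotientGroup.mk_surjective (φ ⟨_, hc⟩)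
    have ht' : t ∈ TG Q φ g := by
      refine mem_TG.2 ⟨⟨_, hc⟩, ?_, ht.symm⟩
      show g⁻¹ * (g * x' * g⁻¹) * g ∈ Q
      have : g⁻¹ * (g * x' * g⁻¹) * g = x' := by group
      rw [this]; exact hx'
    have h4 : φ ⟨_, hc⟩ = 1 := by
      rw [← ht, mk_eq_one]
      by_cases h5 : t = 1
      · exact Or.inl h5
      · exact Or.inr (hcon t ht' h5)
    exact (M.ker _).1 h4
  have hx := key x' hx' h1
  have hy := key y' hy' h2
  have h4 : x' * y' = z * (y' * x') := (M.comm x' hx' y' hy').resolve_left h3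
  have h5 : (g * x' * g⁻¹) * (g * y' * g⁻¹) = (g * z * g⁻¹) * ((g * y' * g⁻¹) * (g * x' * g⁻¹)) := by
    have e1 : (g * x' * g⁻¹) * (g * y' * g⁻¹) = g * (x' * y') * g⁻¹ := by group
    rw [e1, h4]; group
  rcases M.comm _ hx _ hy with h6 | h6
  · rw [h6] at h5
    exact M.s_ne hs hne (mul_eq_right.1 h5.symm)
  · rw [h6] at h5
    exact hne (mul_right_cancel h5.symm)

/-- conjugates of the central involution have type 64 -/
theorem type64 : ∃ k : Co0, R (g * z * g⁻¹) (k • t0L) := by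
  obtain ⟨v, hRv, hn⟩ := (M.type_cases hs).resolve_left (M.s_ne hs hne) |>.resolve_left hne
  rcases hn with hn | hn | hn
  · exfalso
    obtain ⟨k, hk⟩ := Eqv.one (v := v0L) (w := v) (min_trans v.2 hn).symm
    have M' := M.twist k
    have hR' : (fun x w => R x (k • w)) (g * z * g⁻¹) v0L := by
      show R (g * z * g⁻¹) (k • v0L); rw [hk]; exact hRv
    set φ' := (MulAut.conj (QuotientGroup.mk k⁻¹ : Spor.Co1)).toMonoidHom.comp φ
    obtain ⟨t, ht, t1, t2⟩ := M'.TG_ne hs hne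
    have hres := two32 (T := TG Q φ' g) (M'.TG_pgroup hs hne) (M'.neg_mem_TG hs hne) (by
      intro t ht
      obtain ⟨u, hu⟩ := M'.Runiq (M'.TG_stab hs hne hR' ht) hR'
      have h1 : app t v0 - v0 = (u : Vec) + u := by
        have := congrArg Subtype.val hu
        rw [← app_coe] at this
        have e : app t v0 = v0 + ((u : Vec) + u) := this
        rw [e]; abel
      rcases congr_cases v0_mem u.2 (by rw [app_norm t v0_mem, norm_v0]; norm_num) (by rw [norm_v0]; norm_num) h1 with h2 | h2 | h2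
      · exact Or.inl h2
      · exact Or.inr h2
      · rw [norm_v0] at h2; exact absurd h2.2.1 (by norm_num)) (by
      intro g0 hg0 t ht
      apply M'.TG_norm hs hne hR' _ ht
      have : g0 • v0L = v0L := smul_eq_iff_app.2 hg0
      rw [this]; exact hR') t ht
    rcases hres with h | h
    · exact t1 h
    · exact t2 h
  · exfalso
    apply M.sq48 hn
    rw [M.sq_iff hRv]
    have : g * z * g⁻¹ * (g * z * g⁻¹) = g * (z * z) * g⁻¹ := by group
    rw [this, M.zz]; group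
  · obtain ⟨k, hk⟩ := T64 v.2 hn
    refine ⟨k⁻¹, ?_⟩
    have : k⁻¹ • t0L = v := by
      apply smul_eq_iff_app.2
      show app k⁻¹ t0 = v
      rw [← hk, app_inv_app]
    rw [this]; exact hRv

theorem mem_std_iff {g0 : Co0} (hv : R (g * z * g⁻¹) t0L) : R (g * z * g⁻¹) (g0 • t0L) ↔ g0 ∈ monoN := by
  have hc : cross (sg pa 8) = stdCross := cross_t0
  constructor
  · intro h
    obtain ⟨u, hu⟩ := M.Runiq hv h
    apply mem_monoN_of (x := sg pa 8) (mem_std.2 ⟨pa, Or.inl rfl⟩)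
    rw [← hc]
    refine ⟨app_mem g0 (sg8_mem pa), ?_, u, u.2, ?_⟩
    · rw [app_norm g0 (sg8_mem pa)]
    · rw [two_smul_vec]
      have := congrArg Subtype.val hu
      have e : sg pa 8 = ((g0 • t0L : leechLattice) : Vec) + (u + u) := this
      rw [← app_coe] at e
      have e2 : sg pa 8 - app g0 (sg pa 8) = (app g0 (sg pa 8) + ((u : Vec) + u)) - app g0 (sg pa 8) := by
        congr 1
      rw [e2]; abel
  · intro h
    have h1 := mem_monoN.1 h (sg pa 8) (mem_std.2 ⟨pa, Or.inl rfl⟩)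
    rw [← hc] at h1
    obtain ⟨_, _, u, hu, e⟩ := h1
    refine M.Rcongr (u := ⟨u, hu⟩) hv ?_
    apply Subtype.ext
    show sg pa 8 = ((g0 • t0L : leechLattice) : Vec) + (u + u)
    rw [← app_coe, ← two_smul_vec, ← e]
    show _ = app g0 (sg pa 8) + (sg pa 8 - app g0 (sg pa 8))
    abel

theorem TG_eq (hv : R (g * z * g⁻¹) t0L) : TG Q φ g = Sg := by
  apply two64 (M.TG_pgroup hs hne) (M.neg_mem_TG hs hne)
  · intro t ht
    exact (M.mem_std_iff hs hne hv).1 (M.TG_stab hs hne hv ht)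
  · intro g0 hg0 t ht
    exact M.TG_norm hs hne hv ((M.mem_std_iff hs hne hv).2 hg0) ht
  · exact M.TG_ne hs hne

end

end Mon

end Cfsg.Agent.Lib.Monster
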