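import Cfsg.Prelude.Def_Transfer
import Cfsg.Agent.Lib.Nilp

/-!
Extraspecial 2-groups: squares, commutators and the number of involutions.
-/

set_option autoImplicit false

namespace Cfsg.Agent.Lib.Monster

open Cfsg Finset
open scoped commutatorElement

variable {P : Type*} [Group P] [Finite P]

structure ES (P : Type*) [Group P] (ζ : P) : Prop where
  ne : ζ ≠ 1
  sq1 : ζ * ζ = 1
  center : ∀ x : P, (∀ y : P, x * y = y * x) ↔ x = 1 ∨ x = ζ
  comm : ∀ x y : P, x * y = y * x ∨ x * y = ζ * (y * x)
  sq : ∀ x : P, x * x = 1 ∨ x * x = ζ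

theorem exists_ES (hP : IsExtraspecial 2 P) : ∃ ζ : P, ES P ζ := by
  obtain ⟨⟨hp, hf, hc⟩, hz⟩ := hP
  haveI : Fact (Nat.Prime 2) := ⟨Nat.prime_two⟩
  have hz2 : (Subgroup.center P : Set P).ncard = 2 := hz
  obtain ⟨a, b, hab, hset⟩ := Set.ncard_eq_two.1 hz2
  have h1 : (1 : P) ∈ (Subgroup.center P : Set P) := one_mem _
  rw [hset] at h1
  obtain ⟨ζ, hζ, hmem⟩ : ∃ ζ : P, ζ ≠ 1 ∧ ∀ x, x ∈ Subgroup.center P ↔ x = 1 ∨ x = ζ := by
    rcases h1 with h1 | h1
    · refine ⟨b, fun h => hab (h1.symm.trans h.symm), fun x => ?_⟩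
      have : x ∈ (Subgroup.center P : Set P) ↔ x ∈ ({a, b} : Set P) := by rw [hset]
      simp only [SetLike.mem_coe, Set.mem_insert_iff, Set.mem_singleton_iff] at this
      rw [this, h1]
    · have h1' : (1 : P) = b := h1
      refine ⟨a, fun h => hab (h.trans h1'), fun x => ?_⟩
      have : x ∈ (Subgroup.center P : Set P) ↔ x ∈ ({a, b} : Set P) := by rw [hset]
      simp only [SetLike.mem_coe, Set.mem_insert_iff, Set.mem_singleton_iff] at this
      rw [this, h1']; exact or_comm
  have hcen : ∀ x : P, (∀ y : P, x * y = y * x) ↔ x = 1 ∨ x = ζ := by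
    intro x
    rw [← hmem, Subgroup.mem_center_iff]
    exact ⟨fun h y => (h y).symm, fun h y => (h y).symm⟩
  have hζc : ∀ y, ζ * y = y * ζ := (hcen ζ).2 (Or.inr rfl)
  refine ⟨ζ, hζ, ?_, hcen, ?_, ?_⟩
  · have : ζ * ζ ∈ Subgroup.center P := mul_mem ((hmem ζ).2 (Or.inr rfl)) ((hmem ζ).2 (Or.inr rfl))
    rcases (hmem _).1 this with h | h
    · exact h
    · exact absurd (mul_eq_left.1 h) hζ
  · intro x y
    have h2 : ⁅x, y⁆ ∈ Subgroup.center P := by
      rw [← hc]; exact Subgroup.commutator_mem_commutator (Subgroup.mem_top x) (Subgroup.mem_top y)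
    rcases (hmem _).1 h2 with h | h
    · left; exact commutatorElement_eq_one_iff_mul_comm.1 h
    · right
      rw [commutatorElement_def] at h
      rw [← h]; group
  · intro x
    have h2 : x ^ 2 ∈ Subgroup.center P := by
      rw [← hf]; exact Nilp.pow_mem_frattini hp x
    rw [pow_two] at h2
    exact (hmem _).1 h2

namespace ES
variable {ζ : P} (h : ES P ζ)
include h

theorem zc (y : P) : ζ * y = y * ζ := (h.center ζ).2 (Or.inr rfl) y

theorem mem_center {x : P} : x ∈ Subgroup.center P ↔ x = 1 ∨ x = ζ := by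
  rw [← h.center, Subgroup.mem_center_iff]
  exact ⟨fun h y => (h y).symm, fun h y => (h y).symm⟩

/-- elements outside the centre are conjugate to their product with the central involution -/
theorem exists_conj {x : P} (hx1 : x ≠ 1) (hxz : x ≠ ζ) : ∃ y, x * y = ζ * (y * x) := by
  by_contra hc
  push Not at hc
  have : ∀ y : P, x * y = y * x := fun y => (h.comm x y).resolve_right (hc y)
  rcases (h.center x).1 this with h1 | h1
  · exact hx1 h1
  · exact hxz h1

theorem exists_conj' {x : P} (hx1 : x ≠ 1) (hxz : x ≠ ζ) : ∃ y, y * x * y⁻¹ = x * ζ := by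
  obtain ⟨y, hy⟩ := h.exists_conj hx1 hxz
  refine ⟨y, ?_⟩
  have h1 : y * x = ζ * (x * y) := by
    rw [hy, ← mul_assoc, h.sq1, one_mul]
  rw [h1, ← h.zc x]
  group

theorem square_mul (x y : P) : (x * y) * (x * y) = 1 ↔
    ((x * x = 1 ↔ y * y = 1) ↔ x * y = y * x) := by
  have hz := h.zc
  rcases h.comm y x with hc | hc
  · have e : (x * y) * (x * y) = (x * x) * (y * y) := by
      calc (x * y) * (x * y) = x * (y * x) * y := by group
        _ = x * (x * y) * y := by rw [hc]
        _ = (x * x) * (y * y) := by group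
    rw [e]
    rcases h.sq x with h1 | h1 <;> rcases h.sq y with h2 | h2 <;> simp [h1, h2, hc, h.ne, h.sq1]
  · have e : (x * y) * (x * y) = ζ * ((x * x) * (y * y)) := by
      calc (x * y) * (x * y) = x * (y * x) * y := by group
        _ = x * (ζ * (x * y)) * y := by rw [hc]
        _ = (x * ζ) * (x * y) * y := by group
        _ = (ζ * x) * (x * y) * y := by rw [hz x]
        _ = ζ * ((x * x) * (y * y)) := by group
    have hne : x * y ≠ y * x := by
      intro h1
      rw [h1] at hc
      exact h.ne (mul_eq_right.1 hc.symm)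
    rw [e]
    rcases h.sq x with h1 | h1 <;> rcases h.sq y with h2 | h2 <;> simp [h1, h2, hne, h.ne, h.sq1]

/-- the number of solutions of x² = 1 -/
theorem count_sq {n : ℕ} (hn : Nat.card P = 2 ^ (2 * n + 1)) :
    {x : P | x * x = 1}.ncard = 2 ^ (2 * n) + 2 ^ n ∨ {x : P | x * x = 1}.ncard + 2 ^ n = 2 ^ (2 * n) := by
  classical
  haveI := Fintype.ofFinite P
  let s : P → ℤ := fun x => if x * x = 1 then 1 else -1
  let b : P → P → ℤ := fun x y => if x * y = y * x then 1 else -1
  have hs2 : ∀ x, s x * s x = 1 := by intro x; simp only [s]; split_ifs <;> norm_num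
  have hmul : ∀ x y, s (x * y) = s x * s y * b x y := by
    intro x y
    have := h.square_mul x y
    simp only [s, b]
    by_cases h1 : x * x = 1 <;> by_cases h2 : y * y = 1 <;> by_cases h3 : x * y = y * x <;>
      simp only [h1, h2, h3, iff_true, iff_false, true_iff, false_iff, not_true, not_false_iff] at this ⊢ <;>
      simp [this]
  have hb0 : ∀ u, u ≠ 1 → u ≠ ζ → ∑ x, b x u = 0 := by
    intro u h1 h2
    obtain ⟨y, hy⟩ := h.exists_conj h1 h2
    have e1 : ∀ x, b (y * x) u = - b x u := by
      intro x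
      simp only [b]
      have hz := h.zc
      have hy' : y * u = ζ * (u * y) := by
        rw [hy, ← mul_assoc, h.sq1, one_mul]
      rcases h.comm x u with hc | hc
      · have e2 : y * x * u ≠ u * (y * x) := by
          intro e
          have : y * x * u = ζ * (u * (y * x)) := by
            calc y * x * u = y * (x * u) := by group
              _ = y * (u * x) := by rw [hc]
              _ = (y * u) * x := by group
              _ = ζ * (u * y) * x := by rw [hy']
              _ = ζ * (u * (y * x)) := by group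
          rw [e] at this
          exact h.ne (mul_eq_right.1 this.symm)
        rw [if_neg e2, if_pos hc]
      · have hne : x * u ≠ u * x := by
          intro e
          rw [e] at hc
          exact h.ne (mul_eq_right.1 hc.symm)
        have e2 : y * x * u = u * (y * x) := by
          calc y * x * u = y * (x * u) := by group
            _ = y * (ζ * (u * x)) := by rw [hc]
            _ = (y * ζ) * (u * x) := by group
            _ = (ζ * y) * (u * x) := by rw [hz y]
            _ = ζ * (y * u) * x := by group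
            _ = ζ * (ζ * (u * y)) * x := by rw [hy']
            _ = (ζ * ζ) * (u * (y * x)) := by group
            _ = u * (y * x) := by rw [h.sq1, one_mul]
        rw [if_pos e2, if_neg hne]; norm_num
    have e2 : ∑ x, b (y * x) u = ∑ x, b x u := (Equiv.sum_comp (Equiv.mulLeft y) (fun x => b x u))
    rw [sum_congr rfl (fun x _ => e1 x), sum_neg_distrib] at e2
    omega
  have hcard : (Fintype.card P : ℤ) = 2 ^ (2 * n + 1) := by
    rw [← Nat.card_eq_fintype_card, hn]; push_cast; rfl
  have hT : (∑ x, s x) * (∑ x, s x) = 2 ^ (2 * n + 2) := by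
    have e1 : (∑ x, s x) * (∑ x, s x) = ∑ u, s u * ∑ x, b x u := by
      rw [sum_mul_sum]
      have e2 : ∀ x, ∑ y, s x * s y = ∑ u, s u * b x u := by
        intro x
        rw [← Equiv.sum_comp (Equiv.mulLeft x) (fun y => s x * s y)]
        refine sum_congr rfl (fun u _ => ?_)
        show s x * s (x * u) = s u * b x u
        rw [hmul, ← mul_assoc, ← mul_assoc, hs2, one_mul]
      rw [sum_congr rfl (fun x _ => e2 x), sum_comm]
      refine sum_congr rfl (fun u _ => ?_)
      rw [mul_sum]
    rw [e1, ← sum_subset (subset_univ ({1, ζ} : Finset P)) (fun u _ hu => by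
      simp only [mem_insert, mem_singleton, not_or] at hu
      rw [hb0 u hu.1 hu.2, mul_zero])]
    rw [sum_pair (Ne.symm h.ne)]
    have e2 : ∑ x, b x 1 = 2 ^ (2 * n + 1) := by
      simp only [b, mul_one, one_mul, if_true, sum_const, card_univ, nsmul_eq_mul, mul_one]
      exact hcard
    have e3 : ∑ x, b x ζ = 2 ^ (2 * n + 1) := by
      have : ∀ x, b x ζ = 1 := by
        intro x; simp only [b]; rw [if_pos (h.zc x).symm]
      simp only [this, sum_const, card_univ, nsmul_eq_mul, mul_one]
      exact hcard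
    have e4 : s 1 = 1 := by simp [s]
    have e5 : s ζ = 1 := by simp [s, h.sq1]
    rw [e2, e3, e4, e5]; ring
  have hS : ∑ x, s x = 2 * ({x : P | x * x = 1}.ncard : ℤ) - 2 ^ (2 * n + 1) := by
    have e1 : ∀ x, s x = 2 * (if x * x = 1 then 1 else 0) - 1 := by
      intro x; simp only [s]; split_ifs <;> norm_num
    rw [sum_congr rfl (fun x _ => e1 x), sum_sub_distrib, ← mul_sum, sum_boole]
    have e2 : {x : P | x * x = 1}.ncard = (univ.filter (fun x : P => x * x = 1)).card := by
      rw [← Set.ncard_coe_finset]; congr 1; ext x; simp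
    rw [e2]
    simp only [sum_const, card_univ, nsmul_eq_mul, mul_one]
    rw [hcard]
  rw [hS] at hT
  have h2 : (2 * ({x : P | x * x = 1}.ncard : ℤ) - 2 ^ (2 * n + 1) - 2 ^ (n + 1)) *
      (2 * ({x : P | x * x = 1}.ncard : ℤ) - 2 ^ (2 * n + 1) + 2 ^ (n + 1)) = 0 := by
    have e : (2 : ℤ) ^ (n + 1) * 2 ^ (n + 1) = 2 ^ (2 * n + 2) := by rw [← pow_add]; ring_nf
    linear_combination hT - e
  have e1 : (2 : ℤ) ^ (2 * n + 1) = 2 * 2 ^ (2 * n) := by ring
  have e2 : (2 : ℤ) ^ (n + 1) = 2 * 2 ^ n := by ring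
  rw [e1, e2] at h2
  rcases mul_eq_zero.1 h2 with h3 | h3
  · left
    have : ({x : P | x * x = 1}.ncard : ℤ) = 2 ^ (2 * n) + 2 ^ n := by linarith
    exact_mod_cast this
  · right
    have : ({x : P | x * x = 1}.ncard : ℤ) + 2 ^ n = 2 ^ (2 * n) := by linarith
    exact_mod_cast this

end ES

end Cfsg.Agent.Lib.Monster
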