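import Cfsg.Agent.Lib.Monster.Conj2

/-!
Groups of Monster type: intersections with conjugates.
-/

set_option autoImplicit false
set_option linter.style.haveILetI false
set_option linter.unusedSectionVars false

namespace Cfsg.Agent.Lib.Monster

open Cfsg Finset Golay

variable {G : Type*} [Group G] {z : G} {Q : Subgroup G} {φ : Cz z →* Spor.Co1} {R : G → leechLattice → Prop}

theorem card_map_Sg : Nat.card (Sg.map (QuotientGroup.mk' (Subgroup.center Co0))) = 2048 := by
  have h := card_ker_range ((QuotientGroup.mk' (Subgroup.center Co0)).comp Sg.subtype)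
  rw [card_Sg] at h
  have hr : ((QuotientGroup.mk' (Subgroup.center Co0)).comp Sg.subtype).range = Sg.map (QuotientGroup.mk' (Subgroup.center Co0)) := by
    rw [MonoidHom.range_comp, Subgroup.range_subtype]
  rw [hr] at h
  have hneg : negEl ∈ Sg := by
    refine ⟨univ, by simpa using isWord_empty.compl, fun x hx => ?_⟩
    rw [negEl_app' hx]
    ext k; unfold Golay.sgn; simp
  have hk : Nat.card ((QuotientGroup.mk' (Subgroup.center Co0)).comp Sg.subtype).ker = 2 := by
    have : (((QuotientGroup.mk' (Subgroup.center Co0)).comp Sg.subtype).ker : Set Sg) = {1, ⟨negEl, hneg⟩} := by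
      ext x
      have e : x ∈ (((QuotientGroup.mk' (Subgroup.center Co0)).comp Sg.subtype).ker : Set Sg) ↔
          (QuotientGroup.mk (x : Co0) : Spor.Co1) = 1 := Iff.rfl
      rw [e, mk_eq_one]
      simp only [Set.mem_insert_iff, Set.mem_singleton_iff]
      constructor
      · rintro (h | h)
        · exact Or.inl (Subtype.ext h)
        · exact Or.inr (Subtype.ext h)
      · rintro (h | h)
        · exact Or.inl (by rw [h]; rfl)
        · exact Or.inr (by rw [h])
    have h2 : (((QuotientGroup.mk' (Subgroup.center Co0)).comp Sg.subtype).ker : Set Sg).ncard = 2 := by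
      rw [this, Set.ncard_pair]
      intro h
      exact negEl_ne (congrArg Subtype.val h).symm
    exact h2
  rw [hk] at h
  omega

namespace Mon

section
variable [Finite G] (M : Mon z Q φ R)
include M

variable {g : G} (hs : g * z * g⁻¹ ∈ Q) (hne : g * z * g⁻¹ ≠ z)
include hs hne

theorem map_AG (hv : R (g * z * g⁻¹) t0L) : (AG Q g).map φ = Sg.map (QuotientGroup.mk' (Subgroup.center Co0)) := by
  rw [← M.TG_eq hs hne hv]
  unfold TG
  rw [Subgroup.map_comap_eq_self_of_surjective (QuotientGroup.mk'_surjective _)]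

theorem card_AG : Nat.card (AG (z := z) Q g) = 2 ^ 24 := by
  obtain ⟨u1, u2⟩ := M.u_ne hs hne
  have hu := M.z_mem hs hne
  rw [← M.card_cen hu u1 u2]
  refine Nat.card_congr (Equiv.ofBijective (fun h => ⟨g⁻¹ * ((h : Cz z) : G) * g, h.2, ?_⟩) ⟨?_, ?_⟩)
  · have h1 : z * ((h : Cz z) : G) = ((h : Cz z) : G) * z := mem_Cz.1 (h : Cz z).2
    have e1 : g⁻¹ * z * g * (g⁻¹ * ((h : Cz z) : G) * g) = g⁻¹ * (z * ((h : Cz z) : G)) * g := by group
    rw [e1, h1]; group
  · intro a b h
    have h1 : g⁻¹ * ((a : Cz z) : G) * g = g⁻¹ * ((b : Cz z) : G) * g := congrArg Subtype.val h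
    apply Subtype.ext
    apply Subtype.ext
    exact mul_left_cancel (mul_right_cancel h1)
  · rintro ⟨x, hx, hx2⟩
    have hc : g * x * g⁻¹ ∈ Cz z := by
      rw [mem_Cz]
      have e1 : z * (g * x * g⁻¹) = g * (g⁻¹ * z * g * x) * g⁻¹ := by group
      rw [e1, hx2]; group
    refine ⟨⟨⟨_, hc⟩, ?_⟩, ?_⟩
    · show g⁻¹ * (g * x * g⁻¹) * g ∈ Q
      have : g⁻¹ * (g * x * g⁻¹) * g = x := by group
      rw [this]; exact hx
    · apply Subtype.ext
      show g⁻¹ * (g * x * g⁻¹) * g = x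
      group

theorem card_inter : Nat.card ((Q ⊓ Q.map (MulAut.conj g).toMonoidHom : Subgroup G)) = 2 ^ 13 := by
  obtain ⟨k, hk⟩ := M.type64 hs hne
  have M' := M.twist k
  have h1 := card_ker_range (((MulAut.conj (QuotientGroup.mk k⁻¹ : Spor.Co1)).toMonoidHom.comp φ).comp (AG (z := z) Q g).subtype)
  rw [M'.card_AG hs hne, MonoidHom.range_comp, Subgroup.range_subtype, M'.map_AG hs hne hk, card_map_Sg] at h1
  have h2 : Nat.card (((MulAut.conj (QuotientGroup.mk k⁻¹ : Spor.Co1)).toMonoidHom.comp φ).comp (AG (z := z) Q g).subtype).ker =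
      Nat.card ((Q ⊓ Q.map (MulAut.conj g).toMonoidHom : Subgroup G)) := by
    refine Nat.card_congr (Equiv.ofBijective (fun h => ⟨(((h : AG (z := z) Q g) : Cz z) : G), ?_, ?_⟩) ⟨?_, ?_⟩)
    · exact (M'.ker _).1 h.2
    · refine ⟨g⁻¹ * (((h : AG (z := z) Q g) : Cz z) : G) * g, (h : AG (z := z) Q g).2, ?_⟩
      show g * (g⁻¹ * (((h : AG (z := z) Q g) : Cz z) : G) * g) * g⁻¹ = _
      group
    · intro a b h
      have h' : (((a : AG (z := z) Q g) : Cz z) : G) = (((b : AG (z := z) Q g) : Cz z) : G) := by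
        have := congrArg (fun t : ((Q ⊓ Q.map (MulAut.conj g).toMonoidHom : Subgroup G)) => (t : G)) h
        exact this
      exact Subtype.ext (Subtype.ext (Subtype.ext h'))
    · rintro ⟨x, hx, y, hy, hxy⟩
      have hxy' : g * y * g⁻¹ = x := hxy
      have hA : (⟨x, M.QC hx⟩ : Cz z) ∈ AG (z := z) Q g := by
        show g⁻¹ * x * g ∈ Q
        rw [← hxy']
        have : g⁻¹ * (g * y * g⁻¹) * g = y := by group
        rw [this]; exact hy
      exact ⟨⟨⟨_, hA⟩, (M'.ker _).2 hx⟩, rfl⟩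
  rw [h2] at h1
  have : (2 : ℕ) ^ 24 = 2048 * 2 ^ 13 := by norm_num
  omega

theorem elab_inter : (∀ x ∈ Q, ∀ y ∈ Q, g⁻¹ * x * g ∈ Q → g⁻¹ * y * g ∈ Q → x * y = y * x ∧ x * x = 1) := by
  intro x hx y hy hx' hy'
  constructor
  · rcases M.comm x hx y hy with h | h
    · exact h
    · rcases M.comm _ hx' _ hy' with h' | h'
      · have e1 : x * y = g * (g⁻¹ * x * g * (g⁻¹ * y * g)) * g⁻¹ := by group
        rw [e1, h']; group
      · exfalso
        apply hne
        have e1 : x * y = g * (g⁻¹ * x * g * (g⁻¹ * y * g)) * g⁻¹ := by group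
        rw [h'] at e1
        have e2 : x * y = (g * z * g⁻¹) * (y * x) := by rw [e1]; group
        rw [h] at e2
        exact (mul_right_cancel e2).symm
  · rcases M.sq x hx with h | h
    · exact h
    · rcases M.sq _ hx' with h' | h'
      · have e1 : x * x = g * (g⁻¹ * x * g * (g⁻¹ * x * g)) * g⁻¹ := by group
        rw [e1, h']; group
      · exfalso
        apply hne
        have e1 : x * x = g * (g⁻¹ * x * g * (g⁻¹ * x * g)) * g⁻¹ := by group
        rw [h', h] at e1
        exact e1.symm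

/-- elements of type 64 are conjugate to z -/
theorem conj_of_64 {x : G} {v : leechLattice} (hx : R x v) (hn : sqNorm (v : Vec) = 64) : IsConj z x := by
  obtain ⟨k, hk⟩ := M.type64 hs hne
  obtain ⟨l, hl⟩ := T64 v.2 hn
  have h1 : (l⁻¹ * k⁻¹) • (k • t0L) = v := by
    rw [mul_smul, inv_smul_smul]
    apply smul_eq_iff_app.2
    show app l⁻¹ t0 = v
    rw [← hl, app_inv_app]
  obtain ⟨h, _, e⟩ := M.trans_of hk hx (M.s_ne hs hne) hne h1
  rw [isConj_iff]
  exact ⟨h * g, by rw [← e]; group⟩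

end

section
variable [Finite G] (M : Mon z Q φ R)
include M

theorem not_conj_type {g : G} (hs : g * z * g⁻¹ ∈ Q) (hne : g * z * g⁻¹ ≠ z) {x : G} (hx : x ∈ Q) (h2 : orderOf x = 2)
    (hc : ¬ IsConj z x) : ∃ v, R x v ∧ sqNorm (v : Vec) = 32 := by
  have hxx : x * x = 1 := by rw [← pow_two, ← h2, pow_orderOf_eq_one]
  rcases M.type_cases hx with rfl | rfl | ⟨v, hv, hn | hn | hn⟩
  · simp at h2
  · exact absurd (IsConj.refl _) hc
  · exact ⟨v, hv, hn⟩
  · exact absurd ((M.sq_iff hv).2 hxx) (M.sq48 hn)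
  · exact absurd (M.conj_of_64 hs hne hv hn) hc

end

end Mon

theorem setting_conj {z : G} {Q : Subgroup (Cz z)} (hS : IsExtraspecialCentralizerSetting z Q 12) :
    ∃ g : G, g * z * g⁻¹ ∈ Q.map (Cz z).subtype ∧ g * z * g⁻¹ ≠ z := by
  obtain ⟨-, -, -, -, g, ⟨hq, hg⟩, hne⟩ := hS
  exact ⟨g, ⟨⟨_, hq⟩, hg, rfl⟩, hne⟩

end Cfsg.Agent.Lib.Monster
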