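import Cfsg.Agent.Lib.Monster.Types

/-!
Groups of Monster type: the quadratic form.
-/

set_option autoImplicit false
set_option linter.style.haveILetI false
set_option linter.unusedSectionVars false

namespace Cfsg.Agent.Lib.Monster

open Cfsg Finset Golay

variable {G : Type*} [Group G] {z : G} {Q : Subgroup G} {φ : Cz z →* Spor.Co1} {R : G → leechLattice → Prop}

def v0L : leechLattice := ⟨v0, v0_mem⟩
def x0L : leechLattice := ⟨x0, x0_mem⟩
/-- third vector -/
def cC : Vec := sg pb 4 + sg (pt 1) 4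
theorem cC_mem : cC ∈ leechLattice := sg_add_mem (by decide) (Or.inl rfl) (Or.inl rfl)
def cL : leechLattice := ⟨cC, cC_mem⟩

theorem norm_cC : sqNorm cC = 32 := sqNorm_sg_add (by decide) (Or.inl rfl) (Or.inl rfl)

namespace Mon
variable (M : Mon z Q φ R)
include M

/-- pairs with product -16 -/
theorem cm16 {v w v' w' : leechLattice} (hv : sqNorm (v : Vec) = 32) (hw : sqNorm (w : Vec) = 32)
    (hv' : sqNorm (v' : Vec) = 32) (hw' : sqNorm (w' : Vec) = 32) (h : dotInt (v : Vec) w = -16) (h' : dotInt (v' : Vec) w' = -16) :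
    Cm R v w ↔ Cm R v' w' := by
  obtain ⟨g, g1, g2⟩ := Eqv.two ((T16 v.2 w.2 hv hw h).trans (T16 v'.2 w'.2 hv' hw' h').symm)
  rw [← g1, ← g2, M.cm_smul]

theorem cm8 {v w v' w' : leechLattice} (hv : sqNorm (v : Vec) = 32) (hw : sqNorm (w : Vec) = 32)
    (hv' : sqNorm (v' : Vec) = 32) (hw' : sqNorm (w' : Vec) = 32) (h : dotInt (v : Vec) w = -8) (h' : dotInt (v' : Vec) w' = -8) :
    Cm R v w ↔ Cm R v' w' := by
  obtain ⟨g, g1, g2⟩ := Eqv.two ((T8 v.2 w.2 hv hw h).trans (T8 v'.2 w'.2 hv' hw' h').symm)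
  rw [← g1, ← g2, M.cm_smul]

theorem cm0 {v w : leechLattice} (hv : sqNorm (v : Vec) = 32) (hw : sqNorm (w : Vec) = 32) (h : dotInt (v : Vec) w = 0) :
    Cm R v w := by
  have key : Cm R v0L x0L := by
    have e : x0L = cL + (v0L + x0L - cL - v0L) := by abel
    have hn : sqNorm ((cL - x0L : leechLattice) : Vec) = 32 := by
      show sqNorm (cC - x0) = 32
      decide +kernel
    have hd : dotInt (v0L : Vec) ((cL - x0L : leechLattice) : Vec) = -16 := by
      show dotInt v0 (cC - x0) = -16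
      decide +kernel
    have hd' : dotInt (v0L : Vec) (cL : Vec) = -16 := by
      show dotInt v0 cC = -16
      decide +kernel
    have h1 := M.cm16 (v := v0L) (w := cL) (v' := v0L) (w' := cL - x0L) norm_v0 norm_cC norm_v0 hn hd' hd
    have h2 : Cm R v0L (cL + -(cL - x0L)) := by
      rw [M.cm_add, M.cm_neg]; exact h1
    have h3 : cL + -(cL - x0L) = x0L := by abel
    rwa [h3] at h2
  obtain ⟨g, g1, g2⟩ := Eqv.two (v := v) (w := w) (v' := v0L) (w' := x0L) (orthPair v.2 w.2 hv hw h)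
  rw [← M.cm_smul g, g1, g2]; exact key

theorem cm16' {v w : leechLattice} (hv : sqNorm (v : Vec) = 32) (hw : sqNorm (w : Vec) = 32)
    (h : dotInt (v : Vec) w = -16) : Cm R v w := by
  have hu : sqNorm ((⟨rO pa, rO_mem pa⟩ : leechLattice) : Vec) = 32 := by
    show sqNorm (rO pa) = 32
    decide +kernel
  have key : Cm R ⟨rO pa, rO_mem pa⟩ (x0L - cL) := by
    rw [sub_eq_add_neg, M.cm_add]
    refine M.cm8 hu norm_x0 hu ?_ ?_ ?_
    · show sqNorm (-cC) = 32
      decide +kernel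
    · show dotInt (rO pa) x0 = -8
      decide +kernel
    · show dotInt (rO pa) (-cC) = -8
      decide +kernel
  refine (M.cm16 (v := ⟨rO pa, rO_mem pa⟩) (w := x0L - cL) (v' := v) (w' := w) hu ?_ hv hw ?_ h).1 key
  · show sqNorm (x0 - cC) = 32
    decide +kernel
  · show dotInt (rO pa) (x0 - cC) = -16
    decide +kernel

theorem dot_cases {v w : Vec} (hvm : v ∈ leechLattice) (hwm : w ∈ leechLattice) (hv : sqNorm v = 32) (hw : sqNorm w = 32) :
    dotInt v w = 0 ∨ dotInt v w = 8 ∨ dotInt v w = -8 ∨ dotInt v w = 16 ∨ dotInt v w = -16 ∨ w = v ∨ w = -v := by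
  by_cases h1 : w = v
  · tauto
  by_cases h2 : w = -v
  · tauto
  have e1 := dot_le' hvm hwm h1
  have e2 := dot_le' (neg_mem hvm) hwm h2
  rw [dotInt_neg_left, sqNorm_neg] at e2
  have e3 := norm16 (add_mem hvm hwm)
  rw [sqNorm_add] at e3
  omega

/-- the commutator form does not vanish on pairs with product -8 -/
theorem cm8' {v w : leechLattice} (hv : sqNorm (v : Vec) = 32) (hw : sqNorm (w : Vec) = 32)
    (h : dotInt (v : Vec) w = -8) : ¬ Cm R v w := by
  intro hc
  have h8 : ∀ {v w : leechLattice}, sqNorm (v : Vec) = 32 → sqNorm (w : Vec) = 32 → Cm R v w := by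
    intro v' w' hv' hw'
    rcases M.dot_cases v'.2 w'.2 hv' hw' with h1 | h1 | h1 | h1 | h1 | h1 | h1
    · exact M.cm0 hv' hw' h1
    · rw [← M.cm_neg]
      exact (M.cm8 hv hw hv' (by show sqNorm (-(w' : Vec)) = 32; rw [sqNorm_neg, hw']) h
        (by show dotInt (v' : Vec) (-(w' : Vec)) = -8; rw [dotInt_neg_right, h1])).1 hc
    · exact (M.cm8 hv hw hv' hw' h h1).1 hc
    · rw [← M.cm_neg]
      exact M.cm16' hv' (by show sqNorm (-(w' : Vec)) = 32; rw [sqNorm_neg, hw'])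
        (by show dotInt (v' : Vec) (-(w' : Vec)) = -16; rw [dotInt_neg_right, h1])
    · exact M.cm16' hv' hw' h1
    · rw [Subtype.ext h1]; exact M.cm_self
    · have : w' = -v' := Subtype.ext h1
      rw [this, M.cm_neg]; exact M.cm_self
  have step : ∀ u : leechLattice, (∀ w : leechLattice, sqNorm (w : Vec) = 32 → Cm R u w) → ∀ w, Cm R u w := by
    intro u hu
    let A : AddSubgroup Vec :=
      { carrier := {x | ∃ hx : x ∈ leechLattice, Cm R u ⟨x, hx⟩}
        zero_mem' := ⟨zero_mem _, M.cm_zero⟩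
        add_mem' := by
          rintro x y ⟨hx, h1⟩ ⟨hy, h2⟩
          refine ⟨add_mem hx hy, ?_⟩
          have : (⟨x + y, add_mem hx hy⟩ : leechLattice) = ⟨x, hx⟩ + ⟨y, hy⟩ := rfl
          rw [this, M.cm_add]; exact ⟨fun _ => h2, fun _ => h1⟩
        neg_mem' := by
          rintro x ⟨hx, h1⟩
          refine ⟨neg_mem hx, ?_⟩
          have : (⟨-x, neg_mem hx⟩ : leechLattice) = -⟨x, hx⟩ := rfl
          rw [this, M.cm_neg]; exact h1 }
    have hA : leechLattice ≤ A := gen_min (fun x hx hn => ⟨hx, hu ⟨x, hx⟩ hn⟩)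
    intro w
    obtain ⟨_, h⟩ := hA w.2
    exact h
  have h1 : ∀ u : leechLattice, sqNorm (u : Vec) = 32 → ∀ w, Cm R u w := fun u hu => step u (fun w hw => h8 hu hw)
  have h2 : ∀ u w, Cm R u w := fun u => step u (fun w hw => (M.cm_symm).1 (h1 w hw u))
  have h3 : ∀ x ∈ Q, x = 1 ∨ x = z := by
    intro x hx
    apply M.cen x hx
    intro y hy
    obtain ⟨a, ha⟩ := M.Rex x hx
    obtain ⟨b, hb⟩ := M.Rex y hy
    exact h2 a b x y ha hb
  have h4 : (Q : Set G).ncard ≤ ({1, z} : Set G).ncard := Set.ncard_le_ncard (fun x hx => h3 x hx) (Set.toFinite _)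
  have h5 : (Q : Set G).ncard = 2 ^ 25 := M.card
  have h6 := Set.ncard_insert_le (1 : G) {z}
  rw [Set.ncard_singleton] at h6
  omega

theorem sq32 {v : leechLattice} (hv : sqNorm (v : Vec) = 32) : Sq R v := by
  have htr : ∀ {v w : leechLattice}, sqNorm (v : Vec) = 32 → sqNorm (w : Vec) = 32 → (Sq R v ↔ Sq R w) := by
    intro v w hv hw
    obtain ⟨g, hg⟩ := Eqv.one ((min_trans v.2 hv).trans (min_trans w.2 hw).symm)
    rw [← hg, M.sq_smul]
  have hn : sqNorm ((v0L + cL : leechLattice) : Vec) = 32 := by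
    show sqNorm (v0 + cC) = 32
    decide +kernel
  have h1 : Sq R (v0L + cL) := by
    rw [M.sq_add]
    have e1 := htr (v := v0L) (w := cL) norm_v0 norm_cC
    have e2 := M.cm16' (v := v0L) (w := cL) norm_v0 norm_cC (by show dotInt v0 cC = -16; decide +kernel)
    exact ⟨fun _ => e2, fun _ => e1⟩
  exact (htr hn hv).1 h1

theorem sq64 {v : leechLattice} (hv : sqNorm (v : Vec) = 64) : Sq R v := by
  obtain ⟨g, hg⟩ := T64 v.2 hv
  have e : g • v = v0L + x0L := smul_eq_iff_app.2 (by rw [hg, t0_eq]; rfl)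
  rw [← M.sq_smul g, e, M.sq_add]
  exact ⟨fun _ => M.cm0 norm_v0 norm_x0 dot_v0_x0, fun _ => ⟨fun _ => M.sq32 norm_x0, fun _ => M.sq32 norm_v0⟩⟩

theorem sq48 {v : leechLattice} (hv : sqNorm (v : Vec) = 48) : ¬ Sq R v := by
  obtain ⟨w, hw, h1, h2⟩ := dec48 v.2 hv
  have h3 := sub_norm hv h1 h2
  have e : v = -(-⟨w, hw⟩ : leechLattice) + (v - ⟨w, hw⟩) := by abel
  have hd : dotInt ((-⟨w, hw⟩ : leechLattice) : Vec) ((v - ⟨w, hw⟩ : leechLattice) : Vec) = 8 := by
    show dotInt (-w) ((v : Vec) - w) = 8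
    rw [dotInt_neg_left, dotInt_sub_right, h2, dotInt_self, h1]; norm_num
  have hc : ¬ Cm R (⟨w, hw⟩ : leechLattice) (v - ⟨w, hw⟩) := by
    apply M.cm8' h1 h3
    show dotInt w ((v : Vec) - w) = -8
    rw [dotInt_sub_right, h2, dotInt_self, h1]; norm_num
  have e2 : v = (⟨w, hw⟩ : leechLattice) + (v - ⟨w, hw⟩) := by abel
  rw [e2, M.sq_add]
  intro hcon
  exact hc (hcon.1 ⟨fun _ => M.sq32 h3, fun _ => M.sq32 h1⟩)

end Mon

end Cfsg.Agent.Lib.Monster
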