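import Cfsg.Agent.Lib.Monster.Basic

/-!
Groups of Monster type: squares and commutators in the extraspecial group.
-/

set_option autoImplicit false
set_option linter.style.haveILetI false
set_option linter.unusedSectionVars false

namespace Cfsg.Agent.Lib.Monster

open Cfsg Finset Golay

variable {G : Type*} [Group G] {z : G} {Q : Subgroup G} {φ : Cz z →* Spor.Co1} {R : G → leechLattice → Prop}

namespace Mon

variable (M : Mon z Q φ R)
include M

theorem zc {x : G} (hx : x ∈ Q) : z * x = x * z := mem_Cz.1 (M.QC hx)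

theorem Rone : R 1 0 := by
  have := M.Rmul M.Rz M.Rz
  rw [M.zz, add_zero] at this
  exact this

theorem Rmz {x : G} {v : leechLattice} (h : R x v) : R (x * z) v := by
  have := M.Rmul h M.Rz
  rwa [add_zero] at this

theorem conj_ex {x : G} (hx : x ∈ Q) (h1 : x ≠ 1) (h2 : x ≠ z) : ∃ y ∈ Q, x * y = z * (y * x) := by
  by_contra hc
  push Not at hc
  rcases M.cen x hx (fun y hy => (M.comm x hx y hy).resolve_right (hc y hy)) with h | h
  · exact h1 h
  · exact h2 h

theorem conj_ex' {x : G} (hx : x ∈ Q) (h1 : x ≠ 1) (h2 : x ≠ z) : ∃ y ∈ Q, y * x * y⁻¹ = x * z := by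
  obtain ⟨y, hy, h⟩ := M.conj_ex hx h1 h2
  refine ⟨y, hy, ?_⟩
  have e1 : y * x = z * (x * y) := by rw [h, ← mul_assoc, M.zz, one_mul]
  rw [e1, ← mul_assoc, M.zc hx]; group

theorem comm_congr {x x' y y' : G} (hx : x ∈ Q) (hy : y ∈ Q) (h1 : x' = x ∨ x' = x * z) (h2 : y' = y ∨ y' = y * z) :
    (x' * y' = y' * x') ↔ (x * y = y * x) := by
  have hz1 := M.zc hx
  have hz2 := M.zc hy
  have k1 : ∀ {x y : G}, z * y = y * z → z * x = x * z → ((x * z) * y = y * (x * z) ↔ x * y = y * x) := by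
    intro x y hy hx
    have e1 : (x * z) * y = (x * y) * z := by rw [mul_assoc, hy, mul_assoc]
    have e2 : y * (x * z) = (y * x) * z := by rw [mul_assoc]
    rw [e1, e2, mul_left_inj]
  rcases h1 with rfl | rfl <;> rcases h2 with rfl | rfl
  · rfl
  · rw [eq_comm, k1 hz1 hz2, eq_comm]
  · exact k1 hz2 hz1
  · have hz3 : z * (y * z) = (y * z) * z := by rw [← mul_assoc, hz2]
    rw [k1 hz3 hz1, eq_comm, k1 hz1 hz2, eq_comm]

end Mon

def Cm (R : G → leechLattice → Prop) (v w : leechLattice) : Prop := ∀ x y, R x v → R y w → x * y = y * x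
def Sq (R : G → leechLattice → Prop) (v : leechLattice) : Prop := ∀ x, R x v → x * x = 1

namespace Mon
variable (M : Mon z Q φ R)
include M

theorem cm_iff {x y : G} {v w : leechLattice} (hx : R x v) (hy : R y w) : Cm R v w ↔ x * y = y * x := by
  constructor
  · intro h; exact h x y hx hy
  · intro h x' y' hx' hy'
    exact (M.comm_congr (M.Rmem hx) (M.Rmem hy) (M.Rtwo hx hx') (M.Rtwo hy hy')).2 h

theorem cm_symm {v w : leechLattice} : Cm R v w ↔ Cm R w v :=
  ⟨fun h x y hx hy => (h y x hy hx).symm, fun h x y hx hy => (h y x hy hx).symm⟩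

theorem cm_smul (g : Co0) {v w : leechLattice} : Cm R (g • v) (g • w) ↔ Cm R v w := by
  obtain ⟨x, hx⟩ := M.Rsurj v
  obtain ⟨y, hy⟩ := M.Rsurj w
  obtain ⟨h, hh⟩ := M.surj (QuotientGroup.mk g)
  rw [M.cm_iff (M.Rconj h g hh hx) (M.Rconj h g hh hy), M.cm_iff hx hy]
  have e1 : (h : G) * x * (h : G)⁻¹ * (h * y * (h : G)⁻¹) = h * (x * y) * (h : G)⁻¹ := by group
  have e2 : (h : G) * y * (h : G)⁻¹ * (h * x * (h : G)⁻¹) = h * (y * x) * (h : G)⁻¹ := by group
  rw [e1, e2, mul_left_inj, mul_right_inj]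

theorem cm_add {u v w : leechLattice} : Cm R u (v + w) ↔ (Cm R u v ↔ Cm R u w) := by
  obtain ⟨a, ha⟩ := M.Rsurj u
  obtain ⟨x, hx⟩ := M.Rsurj v
  obtain ⟨y, hy⟩ := M.Rsurj w
  rw [M.cm_iff ha (M.Rmul hx hy), M.cm_iff ha hx, M.cm_iff ha hy]
  have ha' := M.Rmem ha
  have hx' := M.Rmem hx
  have hy' := M.Rmem hy
  have hne : ∀ {t : G}, t = z * t → False := by
    intro t h
    exact M.z1 (mul_eq_right.1 h.symm)
  rcases M.comm a ha' x hx' with h1 | h1 <;> rcases M.comm a ha' y hy' with h2 | h2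
  · have : a * (x * y) = x * y * a := by rw [← mul_assoc, h1, mul_assoc, h2, mul_assoc]
    simp [h1, h2, this]
  · have e : a * (x * y) = z * (x * y * a) := by
      rw [← mul_assoc, h1, mul_assoc, h2, ← mul_assoc, ← M.zc hx']
      group
    have n1 : ¬ a * y = y * a := fun h => hne (h.symm.trans h2)
    have n2 : ¬ a * (x * y) = x * y * a := fun h => hne (h.symm.trans e)
    simp [h1, n1, n2]
  · have e : a * (x * y) = z * (x * y * a) := by
      rw [← mul_assoc, h1, mul_assoc z, mul_assoc x, h2, mul_assoc x]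
    have n1 : ¬ a * x = x * a := fun h => hne (h.symm.trans h1)
    have n2 : ¬ a * (x * y) = x * y * a := fun h => hne (h.symm.trans e)
    simp [h2, n1, n2]
  · have e : a * (x * y) = x * y * a := by
      rw [← mul_assoc, h1, mul_assoc z, mul_assoc x, h2, ← mul_assoc x z, ← M.zc hx', ← mul_assoc z, ← mul_assoc z, M.zz,
        one_mul, mul_assoc x]
    have n1 : ¬ a * x = x * a := fun h => hne (h.symm.trans h1)
    have n2 : ¬ a * y = y * a := fun h => hne (h.symm.trans h2)
    simp [n1, n2, e]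

theorem cm_zero {u : leechLattice} : Cm R u 0 := by
  obtain ⟨a, ha⟩ := M.Rsurj u
  rw [M.cm_iff ha M.Rone]; group

theorem cm_congr {u v v' t : leechLattice} (h : v = v' + (t + t)) : Cm R u v ↔ Cm R u v' := by
  obtain ⟨a, ha⟩ := M.Rsurj u
  obtain ⟨x, hx⟩ := M.Rsurj v
  rw [M.cm_iff ha hx, M.cm_iff ha (M.Rcongr hx h)]

theorem cm_neg {u v : leechLattice} : Cm R u (-v) ↔ Cm R u v :=
  M.cm_congr (t := -v) (by abel)

theorem cm_self {u : leechLattice} : Cm R u u := by
  obtain ⟨a, ha⟩ := M.Rsurj u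
  rw [M.cm_iff ha ha]

theorem sq_iff {x : G} {v : leechLattice} (hx : R x v) : Sq R v ↔ x * x = 1 := by
  constructor
  · intro h; exact h x hx
  · intro h x' hx'
    rcases M.Rtwo hx hx' with rfl | rfl
    · exact h
    · have hz := M.zc (M.Rmem hx)
      rw [mul_assoc, ← mul_assoc z, hz, mul_assoc x z, M.zz, mul_one, h]

theorem sq_smul (g : Co0) {v : leechLattice} : Sq R (g • v) ↔ Sq R v := by
  obtain ⟨x, hx⟩ := M.Rsurj v
  obtain ⟨h, hh⟩ := M.surj (QuotientGroup.mk g)
  rw [M.sq_iff (M.Rconj h g hh hx), M.sq_iff hx]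
  have e1 : (h : G) * x * (h : G)⁻¹ * (h * x * (h : G)⁻¹) = h * (x * x) * (h : G)⁻¹ := by group
  rw [e1, mul_inv_eq_one, mul_eq_left]

theorem sq_congr {v v' t : leechLattice} (h : v = v' + (t + t)) : Sq R v ↔ Sq R v' := by
  obtain ⟨x, hx⟩ := M.Rsurj v
  rw [M.sq_iff hx, M.sq_iff (M.Rcongr hx h)]

theorem sq_add {v w : leechLattice} : Sq R (v + w) ↔ ((Sq R v ↔ Sq R w) ↔ Cm R v w) := by
  obtain ⟨x, hx⟩ := M.Rsurj v
  obtain ⟨y, hy⟩ := M.Rsurj w
  rw [M.sq_iff (M.Rmul hx hy), M.sq_iff hx, M.sq_iff hy, M.cm_iff hx hy]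
  have hx' := M.Rmem hx
  have hy' := M.Rmem hy
  have hne : ∀ {t : G}, t = z * t → False := by
    intro t h
    exact M.z1 (mul_eq_right.1 h.symm)
  have z1 := M.z1
  have zz := M.zz
  rcases M.comm y hy' x hx' with hc | hc
  · have e : (x * y) * (x * y) = (x * x) * (y * y) := by
      calc (x * y) * (x * y) = x * (y * x) * y := by group
        _ = x * (x * y) * y := by rw [hc]
        _ = (x * x) * (y * y) := by group
    rw [e]
    rcases M.sq x hx' with h1 | h1 <;> rcases M.sq y hy' with h2 | h2 <;> simp [h1, h2, hc, z1, zz]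
  · have e : (x * y) * (x * y) = z * ((x * x) * (y * y)) := by
      calc (x * y) * (x * y) = x * (y * x) * y := by group
        _ = x * (z * (x * y)) * y := by rw [hc]
        _ = (x * z) * (x * y) * y := by group
        _ = (z * x) * (x * y) * y := by rw [M.zc hx']
        _ = z * ((x * x) * (y * y)) := by group
    have n1 : ¬ x * y = y * x := fun h => hne (h.trans hc)
    rw [e]
    rcases M.sq x hx' with h1 | h1 <;> rcases M.sq y hy' with h2 | h2 <;> simp [h1, h2, n1, z1, zz]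

end Mon

end Cfsg.Agent.Lib.Monster
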